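import Cfsg.Agent.Lib.Block.Contrib
import Cfsg.Agent.Lib.Block.DefectTwo
import Cfsg.Agent.Lib.CharGalois

/-!
# The number of `p`-conjugates of a character

Height zero members take values in the field of the `p ^ d g'`-th roots of unity, and for positive
height the truncated norm of the character is divisible by one more power of `p`.
-/

set_option autoImplicit false
set_option linter.unusedSectionVars false
set_option linter.style.haveILetI false

namespace Cfsg.Agent.Lib.CharPConj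

open Cfsg Cfsg.Agent.Lib Cfsg.Agent.Lib.Block

universe u

variable {p : ℕ} {M : Ideal AlgInt} [M.IsPrime] {G : Type u} [Group G] [Fintype G]

/-- Two characters are related when a power map fixing the regular elements carries one to the
other. -/
def Rel (p : ℕ) (χ ψ : IrrCharacter G) : Prop :=
  ∃ k : ℕ, Nat.Coprime k (Nat.card G) ∧ k ≡ 1 [MOD ordCompl[p] (Nat.card G)] ∧
    ∀ g : G, (ψ : G → ℂ) g = (χ : G → ℂ) (g ^ k)

theorem regular_dvd (hp : p.Prime) {g : G} (hg : ¬ p ∣ orderOf g) :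
    orderOf g ∣ ordCompl[p] (Nat.card G) := by
  have h := orderOf_dvd_natCard g
  rw [← Nat.ordProj_mul_ordCompl_eq_self (Nat.card G) p] at h
  exact ((Nat.Coprime.pow_left _ ((hp.coprime_iff_not_dvd).2 hg)).symm).dvd_of_dvd_mul_left h

theorem rel_regular (hp : p.Prime) {χ ψ : IrrCharacter G} (h : Rel p χ ψ) {g : G}
    (hg : ¬ p ∣ orderOf g) : (ψ : G → ℂ) g = (χ : G → ℂ) g := by
  obtain ⟨k, -, hk, hv⟩ := h
  rw [hv, show g ^ k = g ^ 1 from pow_eq_pow_iff_modEq.2 (hk.of_dvd (regular_dvd hp hg)), pow_one]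

/-- The size of a set of conjugates times the truncated norm is at most the Sylow order. -/
theorem card_mul_mult_le (hp : p.Prime) (χ : IrrCharacter G) (s : Finset (IrrCharacter G))
    (hs : ∀ ψ ∈ s, Rel p χ ψ) :
    0 < Heights.mult p χ χ ∧
      (s.card : ℤ) * Heights.mult p χ χ ≤ ((p ^ (Nat.card G).factorization p : ℕ) : ℤ) := by
  classical
  set N := Heights.mult p χ χ with hN
  have hpos : 0 < N := by
    have h := sylow_mul_regInner hp χ χ
    rw [regInner, classInner] at h
    have h2 : ∀ x : G, (if p ∣ orderOf x then 0 else (χ : G → ℂ) x) * (starRingEnd ℂ) ((χ : G → ℂ) x) =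
        ((if p ∣ orderOf x then 0 else Complex.normSq ((χ : G → ℂ) x) : ℝ) : ℂ) := fun x => by
      split_ifs <;> simp [Complex.mul_conj]
    simp only [h2, ← Complex.ofReal_sum, ← Complex.ofReal_natCast, ← Complex.ofReal_inv,
      ← Complex.ofReal_pow, ← Complex.ofReal_mul] at h
    have hr : ((p : ℝ) ^ (Nat.card G).factorization p) * ((Nat.card G : ℝ)⁻¹ *
        ∑ x : G, if p ∣ orderOf x then 0 else Complex.normSq ((χ : G → ℂ) x)) = (N : ℝ) := by
      exact_mod_cast h
    have hs : (0 : ℝ) < ∑ x : G, if p ∣ orderOf x then 0 else Complex.normSq ((χ : G → ℂ) x) := by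
      refine Finset.sum_pos' (fun x _ => ?_) ⟨1, Finset.mem_univ _, ?_⟩
      · split_ifs <;> [rfl; exact Complex.normSq_nonneg _]
      · rw [orderOf_one, if_neg hp.not_dvd_one]
        exact Complex.normSq_pos.2 (Char.irr_degree_ne_zero χ.2)
    have : (0 : ℝ) < N := hr ▸ mul_pos (pow_pos (Nat.cast_pos.2 hp.pos) _)
      (mul_pos (inv_pos.2 (Nat.cast_pos.2 Nat.card_pos)) hs)
    exact_mod_cast this
  have heq : ∀ ψ ∈ s, Heights.mult p χ ψ = N := by
    intro ψ hψ
    rw [Heights.mult_comm hp, ← Int.cast_inj (α := ℂ), hN, ← sylow_mul_regInner hp,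
      ← sylow_mul_regInner hp]
    congr 1
    simp only [regInner, classInner]
    congr 1
    refine Finset.sum_congr rfl fun x _ => ?_
    split_ifs with hx
    · rfl
    · rw [rel_regular hp (hs ψ hψ) hx]
  have h := Heights.sum_mult_sq hp χ
  have h2 : (s.card : ℤ) * N ^ 2 ≤ ∑ ψ : IrrCharacter G, Heights.mult p χ ψ ^ 2 := by
    refine le_trans (le_of_eq ?_) (Finset.sum_le_sum_of_subset_of_nonneg (Finset.subset_univ s)
      fun ψ _ _ => sq_nonneg _)
    rw [Finset.sum_congr rfl fun ψ hψ => by rw [heq ψ hψ], Finset.sum_const, nsmul_eq_mul]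
  rw [h, pow_two, ← mul_assoc, ← hN] at h2
  exact ⟨hpos, le_of_mul_le_mul_right h2 hpos⟩

/-- In a block of defect `d`, a member has at most `φ (p ^ d)` conjugates. -/
theorem card_le_totient (hM : IsPModular p M) (χ : IrrCharacter G)
    (s : Finset (IrrCharacter G)) (hs : ∀ ψ ∈ s, Rel p χ ψ) :
    s.card ≤ Nat.totient (p ^ blockDefect p (blockOf M (χ : G → ℂ))) := by
  classical
  haveI : Fact p.Prime := ⟨hM.1⟩
  have hB := isPBlock_blockOf (M := M) χ
  set d := blockDefect p (blockOf M (χ : G → ℂ)) with hd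
  obtain ⟨D, hD⟩ := exists_isDefectGroup hM hB
  have hDc := (IsDefectGroup.props hM hB hD).2.1
  rw [← hd] at hDc
  choose! k hk1 hk2 hk3 using hs
  have hpd : d ≤ (Nat.card G).factorization p := Nat.sub_le _ _
  have hpG : d ≠ 0 → p ∣ Nat.card G := fun hd0 =>
    Nat.dvd_of_factorization_pos (by omega)
  have hcop : ∀ ψ ∈ s, Nat.Coprime (k ψ) (p ^ d) := fun ψ hψ => by
    rcases Nat.eq_zero_or_pos d with h0 | h0
    · rw [h0, pow_zero]; exact Nat.coprime_one_right _
    · exact ((hk1 ψ hψ).coprime_dvd_right (hpG h0.ne')).pow_right _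
  refine le_trans ?_ (ZMod.card_units_eq_totient (p ^ d)).le
  rw [← Finset.card_univ]
  refine Finset.card_le_card_of_injOn
    (fun ψ => if h : ψ ∈ s then ZMod.unitOfCoprime (k ψ) (hcop ψ h) else 1)
    (fun _ _ => Finset.mem_univ _) fun a ha b hb hab => ?_
  simp only [dif_pos (Finset.mem_coe.1 ha), dif_pos (Finset.mem_coe.1 hb)] at hab
  have hmod : k a ≡ k b [MOD p ^ d] := by
    rw [← ZMod.natCast_eq_natCast_iff]
    exact congrArg Units.val hab
  refine Subtype.ext (funext fun g => ?_)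
  rw [hk3 a ha, hk3 b hb]
  obtain ⟨u, hu⟩ := exists_isPPart (p := p) g
  by_cases hconj : ∃ c : G, c * u * c⁻¹ ∈ D
  · obtain ⟨c, hc⟩ := hconj
    obtain ⟨t, ht1, ht2, ht3, ht4⟩ := hu
    have hou : orderOf u ∣ p ^ d := by
      rw [← hDc, ← show orderOf (c * u * c⁻¹) = orderOf u from orderOf_conj_eq c u]
      exact D.orderOf_dvd_natCard hc
    have hog : orderOf g ∣ p ^ d * ordCompl[p] (Nat.card G) := by
      rw [← ht1]
      exact (Commute.orderOf_mul_dvd_lcm ht2).trans (Nat.lcm_dvd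
        (hou.trans (dvd_mul_right _ _)) ((regular_dvd hM.1 ht4).trans (dvd_mul_left _ _)))
    refine congrArg _ (pow_eq_pow_iff_modEq.2 (Nat.ModEq.of_dvd hog
      ((Nat.modEq_and_modEq_iff_modEq_mul ?_).1 ⟨hmod, (hk2 a ha).trans (hk2 b hb).symm⟩)))
    exact Nat.Coprime.pow_left _ ((hM.1.coprime_iff_not_dvd).2
      (Nat.not_dvd_ordCompl hM.1 Nat.card_pos.ne'))
  · push Not at hconj
    have hzero : ∀ j : ℕ, Nat.Coprime j (Nat.card G) → (χ : G → ℂ) (g ^ j) = 0 := by
      intro j hj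
      obtain ⟨t, ht1, ht2, ht3, ht4⟩ := hu
      have hcu : Nat.Coprime j (orderOf u) := hj.coprime_dvd_right (orderOf_dvd_natCard u)
      refine char_eq_zero_of_not_conj hM hB hD (mem_blockOf_self χ) (z := u ^ j)
        ⟨t ^ j, by rw [← ht1, ht2.mul_pow], ht2.pow_pow j j, ?_, ?_⟩ fun c hc => ?_
      · obtain ⟨e, he⟩ := ht3
        exact ⟨e, by rw [hcu.symm.orderOf_pow, he]⟩
      · rw [(hj.coprime_dvd_right (orderOf_dvd_natCard t)).symm.orderOf_pow]; exact ht4
      · rw [← conj_pow] at hc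
        have hcu' : Nat.Coprime j (orderOf (c * u * c⁻¹)) := by rwa [orderOf_conj_eq]
        obtain ⟨i, hi⟩ := exists_pow_eq_self_of_coprime hcu'
        refine hconj c ?_
        rw [← hi]
        exact D.pow_mem hc i
    rw [hzero _ (hk1 a ha), hzero _ (hk1 b hb)]

/-- A character of positive height has truncated norm divisible by one more power of `p`. -/
theorem dvd_mult_of_height (hM : IsPModular p M) {χ : IrrCharacter G}
    (h : blockHeight p (blockOf M (χ : G → ℂ)) (χ : G → ℂ) ≠ 0) :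
    (p : ℤ) ^ ((charDegree (χ : G → ℂ)).factorization p + 1) ∣ Heights.mult p χ χ := by
  classical
  haveI : Fact p.Prime := ⟨hM.1⟩
  haveI := resField_charP (M := M) hM
  set v := (charDegree (χ : G → ℂ)).factorization p with hv
  set c := ordCompl[p] (charDegree (χ : G → ℂ)) with hc
  set g' := ordCompl[p] (Nat.card G) with hg'
  have hred := redC_omega_regElem_eq_zero hM (isPBlock_blockOf (M := M) χ) (mem_blockOf_self χ)
    (mem_blockOf_self χ) h
  have hmem := omega_mem_locRing (M := M) χ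
    (isClassCoeff_regElem (p := p) (Char.isClassFunction_of_isIrr χ.2)) (intR_regElem χ)
  rw [omega_regElem] at hred hmem
  have hp0 : (p : ℂ) ≠ 0 := Nat.cast_ne_zero.2 hM.1.ne_zero
  have hd : (χ : G → ℂ) 1 = ((p : ℂ) ^ v) * (c : ℂ) := by
    rw [irr_one_eq_natCast χ]
    exact_mod_cast (Nat.ordProj_mul_ordCompl_eq_self (charDegree (χ : G → ℂ)) p).symm
  have hG : (Nat.card G : ℂ) = ((p : ℂ) ^ (Nat.card G).factorization p) * (g' : ℂ) := by
    exact_mod_cast (Nat.ordProj_mul_ordCompl_eq_self (Nat.card G) p).symm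
  have hc0 : (c : ℂ) ≠ 0 :=
    Nat.cast_ne_zero.2 (Nat.ordCompl_pos p (charDegree_pos χ).ne').ne'
  have hN := sylow_mul_regInner hM.1 χ χ
  set z : ℤ := (g' : ℤ) * Heights.mult p χ χ with hz
  have hkey : (z : ℂ) / ((p : ℂ) ^ v) =
      (c : ℂ) * ((Nat.card G : ℂ) * regInner p (χ : G → ℂ) (χ : G → ℂ) / (χ : G → ℂ) 1) := by
    rw [hz, Int.cast_mul, Int.cast_natCast, ← hN, hd, hG]
    field_simp
  have hmem' : (z : ℂ) / ((p : ℂ) ^ v) ∈ locRing M := hkey ▸ mul_mem (nat_mem c) hmem
  obtain ⟨q, hq⟩ := dvd_of_div_pow_mem hM v hmem'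
  have hqr : redC M (q : ℂ) = 0 := by
    have : (q : ℂ) = (z : ℂ) / ((p : ℂ) ^ v) := by
      rw [hq]; push_cast; field_simp
    rw [this, hkey, redC_mul (nat_mem c) hmem, hred, mul_zero]
  rw [show (q : ℂ) = ((q : locRing M) : ℂ) by simp, redC_coe, map_intCast,
    CharP.intCast_eq_zero_iff (ResField M) p] at hqr
  obtain ⟨q', rfl⟩ := hqr
  have hdiv : (p : ℤ) ^ (v + 1) ∣ (g' : ℤ) * Heights.mult p χ χ :=
    ⟨q', by rw [← hz, hq, pow_succ]; ring⟩
  refine Int.dvd_of_dvd_mul_right_of_gcd_one hdiv ?_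
  rw [← Nat.cast_pow, Int.gcd_natCast_natCast]
  exact Nat.Coprime.pow_left _ ((hM.1.coprime_iff_not_dvd).2
    (Nat.not_dvd_ordCompl hM.1 Nat.card_pos.ne'))

/-- The main bound. -/
theorem factorization_lt (hM : IsPModular p M) (χ : IrrCharacter G)
    (s : Finset (IrrCharacter G)) (hs : ∀ ψ ∈ s, Rel p χ ψ) (h1 : p ∣ s.card)
    (h0 : s.card ≠ 0) :
    s.card.factorization p + (charDegree (χ : G → ℂ)).factorization p <
      (Nat.card G).factorization p := by
  have hp := hM.1
  set v := (charDegree (χ : G → ℂ)).factorization p with hv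
  set a := (Nat.card G).factorization p with ha
  set t := s.card.factorization p with ht
  have hle : p ^ t ≤ s.card := Nat.le_of_dvd (Nat.pos_of_ne_zero h0) (Nat.ordProj_dvd _ _)
  have ht1 : 1 ≤ t := hp.factorization_pos_of_dvd h0 h1
  by_cases hh : blockHeight p (blockOf M (χ : G → ℂ)) (χ : G → ℂ) = 0
  · have hd := blockDefect_eq_of_min (p := p) (mem_blockOf_self (M := M) χ) hh
    have htot := card_le_totient hM χ s hs
    set d := blockDefect p (blockOf M (χ : G → ℂ)) with hdd
    rcases Nat.eq_zero_or_pos d with hd0 | hd0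
    · rw [hd0, pow_zero, Nat.totient_one] at htot
      have : p ^ 1 ≤ 1 := (Nat.pow_le_pow_right hp.pos ht1).trans (hle.trans htot)
      rw [pow_one] at this
      exact absurd hp.one_lt (by omega)
    · have hlt : Nat.totient (p ^ d) < p ^ d :=
        Nat.totient_lt _ (Nat.one_lt_pow hd0.ne' hp.one_lt)
      have htd : t < d := (Nat.pow_lt_pow_iff_right hp.one_lt).1 (lt_of_le_of_lt (hle.trans htot) hlt)
      omega
  · obtain ⟨hpos, hbound⟩ := card_mul_mult_le hp χ s hs
    have hdiv := Int.le_of_dvd hpos (dvd_mult_of_height hM hh)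
    have hle' : ((p ^ t : ℕ) : ℤ) * ((p : ℤ) ^ (v + 1)) ≤ ((p ^ a : ℕ) : ℤ) :=
      le_trans (mul_le_mul (by exact_mod_cast hle) hdiv (by positivity) (by positivity)) hbound
    have hle'' : p ^ (t + (v + 1)) ≤ p ^ a := by
      rw [pow_add]; exact_mod_cast hle'
    have := (Nat.pow_le_pow_iff_right hp.one_lt).1 hle''
    omega

end Cfsg.Agent.Lib.CharPConj
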